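import Mathlib
import Cfsg.Agent.GH3.Defs2

/-!
Sectional 2-rank at most four: the stabiliser of a class of a dihedral or quaternion group. See `stubs/Cfsg/Agent/GH/PLAN2.md`.
-/

set_option autoImplicit false
set_option linter.unusedSectionVars false

namespace Cfsg.Agent.GH3

open Cfsg.Agent.Inv.Fz Cfsg.Agent.NE Subgroup
open scoped commutatorElement

variable {G : Type*} [Group G]

/-- The stabiliser of the coset `Φ(Θ) b`. -/
def cls (Θ : Subgroup G) (b : G) : Subgroup G := normalizer {w | w * b⁻¹ ∈ phi Θ}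

/-- A dihedral or quaternion group of type X. -/
structure XG (S Θ : Subgroup G) (a b : G) (n : ℕ) : Prop where
  gd : Gd S Θ a b n
  xt : XT S Θ a b

theorem Gd.dq {S Θ : Subgroup G} {a b : G} {n : ℕ} (h : Gd S Θ a b n) : DQ Θ a b n := by
  obtain ⟨_, _, _, h | h⟩ := h
  exacts [h.dq, h.dq]

theorem XD.xg {S R Θ : Subgroup G} {x s a b : G} {n : ℕ} (h : XD S R x s Θ a b n) : XG S Θ a b n :=
  ⟨⟨R, x, s, Or.inl h.td⟩, h.xt⟩

theorem XH.xg' {S R Θ Θ' : Subgroup G} {x s a b a' b' : G} {n : ℕ} (h : XH S R x s Θ a b n Θ' a' b') :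
    XG S Θ' a' b' n := ⟨h.gd, h.xt'⟩

end Cfsg.Agent.GH3
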