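import Mathlib
import Cfsg.Agent.GH3.Defs
import Cfsg.Agent.GH3.Basic

/-! Sylow 2-subgroups of type PSp4(q) and M22. See `stubs/Cfsg/Agent/GH/PLAN.md`. -/

set_option autoImplicit false
set_option linter.unusedSectionVars false

namespace Cfsg.Agent.GH3

open Cfsg.Agent.Inv.Fz Cfsg.Agent.NE Subgroup
open scoped commutatorElement

variable {G : Type*} [Group G] [Finite G] {S P R K L N T V A B U : Subgroup G} {x s g b : G} {n : ℕ}

/-- `S = (H ∘ H ^ t) ⟨t⟩` with `H` quaternion of order at least 16. -/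
theorem Ctx.not_qq (c : Ctx G) {H : Subgroup G} {a t : G} (hH : DQ H a b n) (h3 : 3 ≤ n) (hb : b * b = zz a n)
    (ht : t * t = 1) (hc : ∀ u ∈ H, ∀ v ∈ cj t H, u * v = v * u) (hd : H ⊓ cj t H = zpowers (zz a n))
    (hS : c.S = H ⊔ cj t H ⊔ zpowers t) : False := by
  obtain ⟨z1, z2, zc⟩ := hH.zz_ne
  have ma : a ∈ H := hH.eq ▸ subset_closure (by simp)
  have mb : b ∈ H := hH.eq ▸ subset_closure (by simp)
  have mj : jj a n ∈ H := pow_mem ma _
  have j2 : jj a n * jj a n = zz a n := by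
    rw [← pow_add, ← two_mul, ← pow_succ', show n - 2 + 1 = n - 1 by omega]
  have bj : b * jj a n * b⁻¹ = (jj a n)⁻¹ := by rw [← conj_pow, hH.inv, inv_pow]
  generalize jj a n = j at mj j2 bj
  generalize zz a n = z at z1 z2 zc hb hd j2
  obtain ⟨k1, k2, k3⟩ := ext_elem (A := ⊥) (fun a ha => by rw [mem_bot.1 ha, one_mul]) z2
    fun a ha => by rw [mem_bot.1 ha, one_mul, mul_one]
  have e : ext ⊥ z = zpowers z := bot_sup_eq _
  rw [e] at k1 k2 k3
  have zm : z ∈ H ⊓ cj t H := hd ▸ mem_zpowers z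
  have cm : ∀ h ∈ H, t * h * t⁻¹ ∈ cj t H := fun h hh => conj_mem_cj.2 hh
  have tz : t * z * t⁻¹ = z := by
    have : t * z * t⁻¹ ∈ H ⊓ cj t H := ⟨by simpa [inv_of_sq ht] using mem_cj.1 zm.2, cm z zm.1⟩
    rcases (k1 _).1 (hd ▸ this) with k | k
    · exact absurd (conj_eq_one_iff.1 (mem_bot.1 k)) z1
    · rw [eq_inv_of_mul_eq_one_right (mem_bot.1 k), inv_of_sq z2]
  let δ : G → G := fun h => h * (t * h * t⁻¹)
  have dm : ∀ u ∈ H, ∀ v ∈ H, δ (u * v) = δ u * δ v := fun u hu v hv => by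
    simp only [δ]
    rw [conj_mul', mul_assoc u v, ← mul_assoc v, hc v hv _ (cm u hu)]
    group
  have dz : δ z = 1 := by simp only [δ]; rw [tz, z2]
  have out : ∀ h ∈ H, h * h = z → t * h * t⁻¹ ∉ H := fun h hh h2 k => by
    have := k2 _ (hd.le (mem_inf.2 ⟨k, cm h hh⟩))
    rw [← conj_mul', h2, tz] at this
    exact z1 this
  have dn : ∀ h ∈ H, h * h = z → δ h ∉ zpowers z := fun h hh h2 k =>
    out h hh h2 ((mul_mem_cancel_left hh).1 (zpowers_le.2 zm.1 k))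
  have d2 : ∀ h ∈ H, h * h = z → δ h * δ h = 1 := fun h hh h2 => by rw [← dm h hh h hh, h2, dz]
  have dc : ∀ h ∈ H, δ h * z = z * δ h := fun h hh => by
    simp only [δ]
    rw [mul_assoc, ← hc z zm.1 _ (cm h hh), ← mul_assoc, ← zc h hh, mul_assoc]
  have dt : ∀ h ∈ H, t * δ h = δ h * t := fun h hh => by
    simp only [δ]
    conv_rhs => rw [hc h hh _ (cm h hh)]
    rw [inv_of_sq ht]
    simp only [mul_assoc]
  have dN : ∀ h ∈ H, δ h ∈ normalizer (H : Set G) := fun h hh => mul_mem (le_normalizer hh)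
    (centralizer_le_normalizer _ (mem_centralizer_iff.2 fun u hu => hc u hu _ (cm h hh)))
  have e1 : b * j = j * b * z := by
    have : j⁻¹ = j * z := by rw [← j2, eq_comm, ← mul_assoc, ← mul_eq_one_iff_eq_inv, mul_assoc (j * j), j2, z2]
    rw [mul_assoc, ← zc b mb, ← mul_assoc, ← this, ← bj, inv_mul_cancel_right]
  have e2 : b * j * (b * j) = z := by
    have : b * j * (b * j) = b * j * b⁻¹ * (b * b) * j := by group
    rw [this, bj, hb, mul_assoc, zc j mj, inv_mul_cancel_left]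
  have e3 : δ b * δ j = δ j * δ b := by
    rw [← dm b mb j mj, e1, dm _ (mul_mem mj mb) z zm.1, dz, mul_one, dm j mj b mb]
  obtain ⟨l1, l2, l3⟩ := ext_elem k2 (d2 j mj j2) fun a ha => comm_zpowers (dc j mj) ha
  have cen : ∀ y : G, y * z = z * y → y * δ j = δ j * y → ext (zpowers z) (δ j) ≤ centralizer {y} := fun y h1 h2 =>
    ext_le.2 ⟨zpowers_le.2 (mem_centralizer_singleton_iff.2 h1.symm), mem_centralizer_singleton_iff.2 h2.symm⟩
  obtain ⟨-, m2, m3⟩ := ext_elem l2 (d2 b mb hb) fun a ha =>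
    (mem_centralizer_singleton_iff.1 (cen _ (dc b mb) e3 ha)).symm
  obtain ⟨-, n2, n3⟩ := ext_elem m2 ht fun a ha => (mem_centralizer_singleton_iff.1
    (ext_le.2 ⟨cen t (comm_of_conj_eq tz) (dt j mj), mem_centralizer_singleton_iff.2 (dt b mb).symm⟩ ha)).symm
  refine c.no16 ⟨?_, n2⟩
  rw [n3 fun k => out b mb hb (conj_mem_norm (ext_le.2 ⟨ext_le.2 ⟨zpowers_le.2 (le_normalizer zm.1), dN j mj⟩,
    dN b mb⟩ k) |>.2 mb), m3 fun k => ?_, l3 (dn j mj j2), k3 fun e => z1 (mem_bot.1 e), card_bot]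
  rcases (l1 _).1 k with k | k
  · exact dn b mb hb k
  · rw [← e3, ← dm b mb j mj] at k
    exact dn _ (mul_mem mb mj) e2 k

/-- `S = A.2²` with `A = E₁₆` a free module: `S` is a Sylow 2-subgroup of `L₄(2)`. -/
theorem Ctx.not_ut4 (c : Ctx G) (hA : El 16 A) (hle : A ≤ c.S) (hn : c.S ≤ normalizer (A : Set G))
    (hc : Nat.card c.S = 64) (h2 : ∀ y ∈ c.S, y * y ∈ A) {t u v : G} (ht : t ∈ c.S) (hu : u ∈ c.S) (hv : v ∈ A)
    (hf : ⁅t, ⁅u, v⁆⁆ ≠ 1) : False :=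
  c.no16 hA

/-- Letters for a Sylow 2-subgroup of `M₂₂`. -/
theorem Ctx.not_m22 (c : Ctx G) (h : L34 c.S A B U) {φ : G} (h1 : φ ∈ c.S) (hA : φ ∈ normalizer (A : Set G))
    (hB : φ ∈ normalizer (B : Set G)) (hU : ¬ Cz φ U) (hS : Ix c.S (A ⊔ B) φ) : False :=
  c.no16 h.elA

end Cfsg.Agent.GH3
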